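import Cfsg.Agent.CosetEnum.Step
import Cfsg.Agent.CosetEnum.Suz.UP0
import Cfsg.Agent.CosetEnum.Suz.UP1
import Cfsg.Agent.CosetEnum.Suz.UP2
import Cfsg.Agent.CosetEnum.Suz.UP3
import Cfsg.Agent.CosetEnum.Suz.UP4

/-! Certificate of a coset enumeration (generated data, owner: helper28). -/

set_option autoImplicit false
set_option maxRecDepth 1000000

namespace Cfsg.Agent.CosetEnum.SuzU

theorem st : staticOK 6 iv (RL.map expand) subs P L = true := by decide +kernel

theorem seg : Seg P L P.m 9072 :=
  (((((Seg.nil).snoc part0).snoc part1).snoc part2).snoc part3).snoc part4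

theorem cert : Cert 6 iv RL subs 9072 := fun g H hl hrels hsubs =>
  upper g H 6 iv hl (RL.map expand) subs hrels hsubs P L rfl st seg

end Cfsg.Agent.CosetEnum.SuzU
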