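import Cfsg.Agent.CosetEnum.Suz.Pres
import Cfsg.Agent.CosetEnum.Suz.U
import Cfsg.Agent.CosetEnum.Suz.XU
import Cfsg.Agent.CosetEnum.Rename

/-!
The subgroup `⟨a, b, c, d, f, g⟩` of the presented Suzuki group (owner: helper28).
-/

set_option autoImplicit false
set_option maxRecDepth 1000000

namespace Cfsg.Agent.CosetEnum.Suz

open Cfsg.Spor Cfsg.Spor.Suz

/-- the letters -/
abbrev pl : List ℕ := [1, 2, 3, 4, 6, 7]

theorem gU_good : Good (ren gS 6 pl) 6 SuzU.iv SuzU.RL := gS_good.ren (by decide +kernel)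

theorem bdU : Bd (Cl (ren gS 6 pl) 6) 19595520 := by
  have g := gU_good
  have h2 := (Bd.zero (ren gS 6 pl)).cl (M := 10) SuzE.cert g (by decide +kernel) (by decide +kernel) (by norm_num) rfl
  have h4 := h2.cl (M := 2160) SuzD.cert g (by decide +kernel) (by decide +kernel) (by norm_num) rfl
  exact h4.cl (M := 19595520) SuzU.cert g (by decide +kernel) (by decide +kernel) (by norm_num) rfl

theorem cardU : Nat.card (Cl (ren gS 6 pl) 6) = 19595520 := by
  apply le_antisymm bdU.2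
  have : Finite Spor.Suz := Nat.finite_of_card_ne_zero (by rw [suz_card]; norm_num)
  have h := (L7 gS_univ).card_ge (lets' := pl) (by decide +kernel) SuzXU.chain
  rw [Cl_ren gS (k := 6) (pl := pl) rfl]
  refine le_trans (le_of_eq ?_) h
  decide +kernel

theorem suz_subU : (Subgroup.closure ({Cfsg.Spor.Suz.a, Cfsg.Spor.Suz.b, Cfsg.Spor.Suz.c, Cfsg.Spor.Suz.d,
    Cfsg.Spor.Suz.f, Cfsg.Spor.Suz.g} : Set (FreeGroup Cfsg.Spor.Suz.Gen))).map
      (PresentedGroup.mk (coxRelators Cfsg.Spor.Suz.edges ∪ {r | r ∈ extra})) = Cl (ren gS 6 pl) 6 := by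
  apply closure_map
  · intro x hx
    rw [isLet_iff] at hx
    match x, hx with
    | 1, _ => exact ⟨Cfsg.Spor.Suz.a, by simp, rfl⟩
    | 2, _ => exact ⟨Cfsg.Spor.Suz.b, by simp, rfl⟩
    | 3, _ => exact ⟨Cfsg.Spor.Suz.c, by simp, rfl⟩
    | 4, _ => exact ⟨Cfsg.Spor.Suz.d, by simp, rfl⟩
    | 5, _ => exact ⟨Cfsg.Spor.Suz.f, by simp, rfl⟩
    | 6, _ => exact ⟨Cfsg.Spor.Suz.g, by simp, rfl⟩
    | (n + 7), h => omega
  · intro s hs
    simp only [Set.mem_insert_iff, Set.mem_singleton_iff] at hs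
    rcases hs with rfl | rfl | rfl | rfl | rfl | rfl
    · exact mem_Cl (ren gS 6 pl) (x := 1) rfl
    · exact mem_Cl (ren gS 6 pl) (x := 2) rfl
    · exact mem_Cl (ren gS 6 pl) (x := 3) rfl
    · exact mem_Cl (ren gS 6 pl) (x := 4) rfl
    · exact mem_Cl (ren gS 6 pl) (x := 5) rfl
    · exact mem_Cl (ren gS 6 pl) (x := 6) rfl

theorem indexU : (Cl (ren gS 6 pl) 6).index = 22880 := by
  have h := (Cl (ren gS 6 pl) 6).card_mul_index
  rw [cardU, suz_card] at h
  omega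

end Cfsg.Agent.CosetEnum.Suz
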